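import Cfsg.Agent.H6.J4.N.Q.Tab0

set_option autoImplicit false
set_option maxRecDepth 100000
set_option Elab.async false

namespace Cfsg.H6.J4.N.Q

theorem p0 : allR (ptU img) 0 1344 = true := by decide +kernel

theorem p1 : allR (ptU img) 1344 427 = true := by decide +kernel

end Cfsg.H6.J4.N.Q
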